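import Cfsg.Agent.H998.PV.Base
import Cfsg.Agent.H560.TwoM
import Cfsg.Agent.H419.Row
import Cfsg.Agent.NotCT.Orders

/-!
# The row of the Monster for the prime thirteen (helper998)
-/

set_option autoImplicit false
set_option maxRecDepth 100000

namespace Cfsg.Agent.H998.PV

open Cfsg Cfsg.Agent.H620.PNorm

universe u

theorem m_13 {K : Type u} [Group K] (h : Spor.IsoM K) : VOrdP 13 K := by
  have hc := NotCT.Orders.m h
  have hfin : Finite K := Nat.finite_of_card_ne_zero (by rw [hc]; norm_num)
  obtain ⟨χ, hχ⟩ := H560.TwoM.deg_m h 47377503606648784400 (by decide)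
  have h13 : Nat.Prime 13 := by norm_num
  have hdz : Cfsg.Agent.H665.NoPQ.HasDZ 13 K := by
    refine Cfsg.Agent.H419.Row.dz_of_dvd (n := 3) χ (by rw [hχ]; norm_num) ?_ (by norm_num)
    rw [hc, show (808017424794512875886459904961710757005754368000000000 : ℕ) =
      13 ^ 3 * 367782168773105542051187940355808264454144000000000 * 1 by norm_num]
    rw [mul_one, Nat.factorization_mul (by norm_num) (by norm_num), Finsupp.add_apply, h13.factorization_pow,
      Finsupp.single_eq_same, Nat.factorization_eq_zero_of_not_dvd (by norm_num)]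
  exact vOrdP_of_card h13 hdz hc (by norm_num) (by norm_num)

end Cfsg.Agent.H998.PV
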